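import Cfsg.Agent.H438.RC.SymAsm
import Cfsg.Agent.H188.RC.G43
import Cfsg.Agent.H188.RC.SymBC
import Cfsg.Agent.H398.RC.StrTStmt
import Cfsg.Agent.H398.RC.SymThree
import Cfsg.Agent.H452.RC.DecMain
import Cfsg.Agent.H452.RC.DSwap
import Cfsg.Agent.H452.RC.GDecMain

/-!
# S3510, E13: `GraphSym` from `SmallStmt` and `SymDelta` (helper438)
-/

set_option autoImplicit false

namespace Cfsg.Agent.H438.RC

open Cfsg.Agent.H380.RC

theorem graphSym_of_delta (hS : SmallStmt) (hd : SymDelta) : GraphSym :=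
  graphSym_of H452.RC.dec_main hS H398.RC.strT_stmt (H398.RC.sym_three H452.RC.gdec_main hS)
    (H398.RC.sym_four H452.RC.dec_main H452.RC.gdec_main hS) (H188.RC.SymBC.symBeta H452.RC.d_main hS)
    (H188.RC.SymBC.symGamma H452.RC.dswap_main hS H188.RC.graph43) hd

end Cfsg.Agent.H438.RC
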